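import Cfsg.Agent.Lib.PLocal.FFSep
import Cfsg.Agent.Lib.PLocal.ClassTwo
import Cfsg.Agent.Lib.PLocal.Replacement
import Cfsg.Agent.Lib.PLocal.Quadratic

/-! Abelian offenders for `p = 2` are generated by transvections. -/

set_option autoImplicit false

namespace Cfsg.Lib.PLocal

open Subgroup Cfsg.Lib.Transfer
open scoped commutatorElement MatrixGroups

theorem nonempty_sl_two_two_equiv : Nonempty (SL(2, ZMod 2) ≃* Equiv.Perm (Fin 3)) := by
  let e : Fin 3 → Fin 2 → ZMod 2 := ![![1, 0], ![0, 1], ![1, 1]]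
  have h1 : ∀ g : SL(2, ZMod 2), ∃ σ : Equiv.Perm (Fin 3), ∀ i, g.1.mulVec (e i) = e (σ i) := by
    decide +kernel
  choose f hf using h1
  have he : Function.Injective e := by decide
  let φ := MonoidHom.mk' f fun a b => Equiv.ext fun i => he (by
    rw [← hf, Equiv.Perm.mul_apply, ← hf, ← hf, Matrix.mulVec_mulVec]; rfl)
  have h2 : ∀ g : SL(2, ZMod 2), (∀ i, g.1.mulVec (e i) = e i) → g = 1 := by decide +kernel
  have h3 : Function.Injective φ := (injective_iff_map_eq_one φ).2 fun g hg => h2 g fun i => by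
    rw [hf, show f g = 1 from hg]; rfl
  refine ⟨MulEquiv.ofBijective φ (h3.bijective_of_nat_card_le ?_)⟩
  rw [Nat.card_eq_fintype_card, Nat.card_eq_fintype_card]
  decide +kernel

variable {G : Type*} [Group G] [Finite G]

theorem FFPair.le_of_abelian {V H F U : Subgroup G} (h : FFPair 2 V H F)
    (hU : ∀ B, B ≤ H → IsBestOffenderOn 2 V B → Transv 2 V B → B ≤ U) :
    ∀ (n : ℕ) (A : Subgroup G), Nat.card A = n → A ≤ H → IsMulCommutative A → IsPGroup 2 A →
      (∀ B ≤ A, offMeasure V B ≤ offMeasure V A) → A ≤ U := by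
  intro n
  induction n using Nat.strong_induction_on with | _ n ih => ?_
  intro A hn hAH hc hA hm
  by_cases h0 : A = ⊥
  · exact h0 ▸ bot_le
  have hV := PGroup.elemAb_isPGroup h.elem
  have hAV := hAH.trans h.norm
  have cA : A ≤ centralizer (A : Set G) := le_centralizer A
  have hab : ⁅A, A⁆ ≤ centralizer (V : Set G) :=
    (commutator_eq_bot_iff_le_centralizer.2 cA).le.trans bot_le
  obtain ⟨r1, r2⟩ := replacement_of_max h.elem.1 hAV hab hm le_rfl
  set D := A ⊓ centralizer ((⁅V, A⁆ : Subgroup G) : Set G)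
  have hD : IsBestOffenderOn 2 V D := ⟨fun B hB => (hm B (hB.trans inf_le_left)).trans r2.ge,
    (commutator_mono inf_le_left inf_le_left).trans hab, fun a ha =>
      pow_mem_centralizer_of_quadratic h.elem.2 (hAV ha.1)
        (commutator_eq_bot_iff_le_centralizer.2 ((commutator_mono le_rfl
          (zpowers_le.2 ha.1)).trans (le_centralizer_iff.1 (zpowers_le.2 ha.2))))⟩
  have hD0 : D ≠ ⊥ := fun e => commutator_replacement_ne_bot hV h.elem.1 hAV (fun a ha => by
    obtain ⟨k, hk⟩ := Core.isPGroup_subgroup_iff.mp hA a ha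
    exact ⟨k, hk ▸ one_mem _⟩) le_rfl r1 ((h.commutator_ne_bot_iff hAH).2 h0)
      (by rw [e, commutator_bot_right])
  obtain ⟨B, hBD, hB, hBc, -⟩ := h.exists_card_eq_not_le (inf_le_left.trans hAH) hD
    (U := ⊥) (mt le_bot_iff.1 hD0)
  have hBA : B ≤ A := hBD.trans inf_le_left
  have hBH := hBA.trans hAH
  have hT := h.transv_of_card hBH hB hBc
  have hP := h.card_plane hBH hT
  have hPV := h.plane_le hBH
  have hBP := h.block_inf hBH hT
  have aB : A ≤ normalizer (B : Set G) :=
    (cA.trans (centralizer_le hBA)).trans (centralizer_le_normalizer _)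
  have aP : A ≤ normalizer ((⁅V, ⁅F, B⁆ ⊔ B⁆ : Subgroup G) : Set G) :=
    Coprime.le_normalizer_commutator hAV (Core.le_normalizer_sup
      (Coprime.le_normalizer_commutator (hAH.trans h.normF) aB) aB)
  generalize ⁅V, ⁅F, B⁆ ⊔ B⁆ = P at hP hPV hBP aP
  have hBP' : ¬ B ≤ centralizer (P : Set G) := fun e =>
    ne_bot_of_card_prime hBc (eq_bot_iff.2 ((le_inf le_sup_right e).trans hBP.le))
  have hPp := hV.to_le hPV
  have w0 : ⁅P, A⁆ ≠ ⊥ := fun e => hBP' (hBA.trans
    (le_centralizer_iff.1 (commutator_eq_bot_iff_le_centralizer.1 e)))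
  have w1 := PGroup.commutator_lt hPp hA aP fun e => w0 (by rw [e, commutator_bot_left])
  have w2 := PGroup.mul_card_le_of_lt hPp w1
  have w3 := PGroup.mul_card_le_of_lt (hPp.to_le w1.le) (PGroup.commutator_lt (hPp.to_le w1.le) hA
    (normalizer_commutator_ge_right P A) w0)
  have w4 : ⁅⁅P, A⁆, A⁆ = ⊥ := card_le_one_iff_eq_bot _ |>.1 (by omega)
  have w5 : 2 ≤ Nat.card ↥⁅P, A⁆ := (one_lt_card_iff_ne_bot _).2 w0
  obtain ⟨v, hv, hvB⟩ := SetLike.not_le_iff_exists.1 (mt le_centralizer_iff.1 hBP')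
  have hvA : v ∉ centralizer (A : Set G) := fun e => hvB (centralizer_le hBA e)
  have w6 := commutator_eq_bot_iff_le_centralizer.1 w4
  set A' := A ⊓ centralizer (P : Set G)
  have i1 : A'.relIndex A ≤ 2 := by
    refine (relIndex_le_of_map (C := ⊥) (M := ⁅P, A⁆) (fun a => ⁅v, a⁆)
      (fun a ha => commutator_mem_commutator hv ha) fun a ha b hb e => ?_).trans
        (by rw [relIndex_bot_left]; omega)
    have hab := A.mul_mem (A.inv_mem ha) hb
    have e1 : v * (a⁻¹ * b) = a⁻¹ * b * v := by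
      rw [mem_bot, inv_mul_eq_one] at e
      simp only [commutatorElement_def, mul_assoc, mul_right_inj] at e
      calc v * (a⁻¹ * b) = a⁻¹ * (a * (v⁻¹ * a⁻¹))⁻¹ * b := by group
        _ = _ := by rw [e]; group
    have e2 : ⁅P, A⁆ < P ⊓ centralizer (zpowers (a⁻¹ * b) : Set G) := lt_of_le_of_ne
      (le_inf w1.le (w6.trans (centralizer_le (zpowers_le.2 hab)))) fun e => hvA (w6 (e ▸ ⟨hv, by
        rintro _ ⟨n, rfl⟩
        exact ((Commute.symm e1).zpow_left n).eq⟩))
    have e3 := PGroup.mul_card_le_of_lt (hPp.to_le inf_le_left) e2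
    have e4 := eq_of_le_of_card_ge (inf_le_left : P ⊓ centralizer (zpowers (a⁻¹ * b) : Set G) ≤ P)
      (by omega)
    exact ⟨hab, le_centralizer_iff.1 (e4.ge.trans inf_le_right) (mem_zpowers _)⟩
  have i2 := Core.card_mul_relIndex (inf_le_left : A' ≤ A)
  have i3 : Nat.card A ≤ 2 * Nat.card A' := by nlinarith
  have i4 := PGroup.mul_card_le_of_lt (hV.to_le inf_le_left) (lt_of_le_of_ne
    (inf_le_inf_left V (centralizer_le (inf_le_left : A' ≤ A))) fun e => hvA
      ((e.ge.trans inf_le_right) ⟨hPV hv, le_centralizer_iff.1 inf_le_right hv⟩))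
  have i5 : A' < A' ⊔ B := lt_of_le_of_ne le_sup_left fun e =>
    hBP' ((le_sup_right.trans e.ge).trans inf_le_right)
  have i6 : A' ⊔ B ≤ A := sup_le inf_le_left hBA
  have i7 := PGroup.mul_card_le_of_lt (hA.to_le i6) i5
  rw [← eq_of_le_of_card_ge i6 (by omega)]
  refine sup_le (ih _ (hn ▸ card_lt_of_lt (i5.trans_le i6)) A' rfl (inf_le_left.trans hAH)
    (PGroup.isMulCommutative_of_le inf_le_left hc) (hA.to_le inf_le_left) fun C hC =>
      (hm C (hC.trans inf_le_left)).trans ?_) (hU B hBH hB hT)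
  exact (Nat.mul_le_mul_right _ i3).trans
    (by rw [mul_comm 2, mul_assoc]; exact Nat.mul_le_mul_left _ i4)

omit [Finite G] in
theorem nonempty_equiv_pi {ι : Type*} [Finite ι] {E : ι → Subgroup G} {H : Subgroup G}
    {K : Type*} [Group K] (hn : ∀ i, H ≤ normalizer (E i : Set G)) (hi : iSupIndep E)
    (hs : ⨆ i, E i = H) (he : ∀ i, Nonempty (E i ≃* K)) :
    Nonempty (H ≃* (Fin (Nat.card ι) → K)) := by
  classical
  have := Fintype.ofFinite ι
  have hle : ∀ i, E i ≤ H := fun i => hs ▸ le_iSup E i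
  have hc : Pairwise fun i j => ∀ x y : G, x ∈ E i → y ∈ E j → Commute x y := by
    intro i j hij x y hx hy
    rw [← commutatorElement_eq_one_iff_commute, ← mem_bot, ← (hi.pairwiseDisjoint hij).eq_bot]
    refine mem_inf.2 ⟨?_, (E j).mul_mem ((mem_normalizer_iff.1 (hn j (hle i hx)) y).1 hy) ((E j).inv_mem hy)⟩
    have := (E i).mul_mem hx ((mem_normalizer_iff.1 (hn i (hle j hy)) _).1 ((E i).inv_mem hx))
    simpa only [commutatorElement_def, mul_assoc] using this
  exact ⟨(((MulEquiv.subgroupCongr (hs.symm.trans (noncommPiCoprod_range (hcomm := hc)).symm)).trans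
    (MonoidHom.ofInjective (injective_noncommPiCoprod_of_iSupIndep (hcomm := hc) hi)).symm).trans
      (MulEquiv.piCongrRight fun i => (he i).some)).trans
        (MulEquiv.arrowCongr (Finite.equivFin ι) (MulEquiv.refl K))⟩

end Cfsg.Lib.PLocal
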