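import Mathlib
import Cfsg.Prelude.Def_OddOrderLocal
import Cfsg.Agent.Lib.Coprime.Nilpotent
import Cfsg.Agent.Lib.PLocal.ZJ

/-!
# The Puig subgroup (Bender–Glauberman, Appendix B)
-/

namespace Cfsg.Lib.PLocal

open Subgroup Cfsg.Lib.Transfer
open scoped commutatorElement

variable {G : Type*} [Group G] {G' : Type*} [Group G'] {p : ℕ}

/-- `L_H(X)`. -/
def puigStepIn (H X : Subgroup G) : Subgroup G :=
  sSup {A : Subgroup G | A ≤ H ∧ IsMulCommutative A ∧ X ≤ normalizer (A : Set G)}

/-- `L_n(H)`. -/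
def puigSeqIn (H : Subgroup G) : ℕ → Subgroup G
  | 0 => ⊥
  | n + 1 => puigStepIn H (puigSeqIn H n)

/-- `L(H)`. -/
def puigIn (H : Subgroup G) : Subgroup G := ⨅ n : ℕ, puigSeqIn H (2 * n + 1)

/-- `L_*(H)`. -/
def puigLowIn (H : Subgroup G) : Subgroup G := ⨆ n : ℕ, puigSeqIn H (2 * n)

theorem puigStepIn_top (X : Subgroup G) : puigStepIn ⊤ X = puigStep X := by
  simp [puigStepIn, puigStep]

theorem puigSeqIn_top (n : ℕ) : puigSeqIn (⊤ : Subgroup G) n = puigSeq G n := by
  induction n with
  | zero => rfl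
  | succ n ih => rw [puigSeqIn, ih, puigStepIn_top]; rfl

theorem puigIn_top : puigIn (⊤ : Subgroup G) = puigSubgroup G := by
  simp only [puigIn, puigSeqIn_top, puigSubgroup]

theorem puigLowIn_top : puigLowIn (⊤ : Subgroup G) = puigLower G := by
  simp only [puigLowIn, puigSeqIn_top, puigLower]

theorem le_puigStepIn {H X A : Subgroup G} (h1 : A ≤ H) (h2 : IsMulCommutative A)
    (h3 : X ≤ normalizer (A : Set G)) : A ≤ puigStepIn H X := le_sSup ⟨h1, h2, h3⟩

theorem puigStepIn_le_iff {H X K : Subgroup G} : puigStepIn H X ≤ K ↔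
    ∀ A ≤ H, IsMulCommutative A → X ≤ normalizer (A : Set G) → A ≤ K :=
  sSup_le_iff.trans ⟨fun h A h1 h2 h3 => h A ⟨h1, h2, h3⟩, fun h A hA => h A hA.1 hA.2.1 hA.2.2⟩

theorem puigStepIn_le (H X : Subgroup G) : puigStepIn H X ≤ H :=
  puigStepIn_le_iff.mpr fun _ h _ _ => h

theorem puigStepIn_mono {H K X Y : Subgroup G} (h1 : H ≤ K) (h2 : Y ≤ X) :
    puigStepIn H X ≤ puigStepIn K Y :=
  puigStepIn_le_iff.mpr fun _ h h' h'' => le_puigStepIn (h.trans h1) h' (h2.trans h'')

theorem puigStepIn_le_of_le {H K X Y : Subgroup G} (h1 : puigStepIn H X ≤ K) (h2 : Y ≤ X) :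
    puigStepIn H X ≤ puigStepIn K Y :=
  puigStepIn_le_iff.mpr fun _ h h' h'' =>
    le_puigStepIn ((le_puigStepIn h h' h'').trans h1) h' (h2.trans h'')

theorem map_puigStepIn {f : G →* G'} (hf : Function.Injective f) {H X : Subgroup G} :
    (puigStepIn H X).map f = puigStepIn (H.map f) (X.map f) := by
  refine le_antisymm (map_le_iff_le_comap.mpr (puigStepIn_le_iff.mpr fun A h1 h2 h3 =>
    map_le_iff_le_comap.mp (le_puigStepIn (map_mono h1) inferInstance
      ((map_mono h3).trans (le_normalizer_map f)))))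
    (puigStepIn_le_iff.mpr fun A h1 h2 h3 => ?_)
  rw [← map_comap_eq_self (h1.trans (map_le_range f H))]
  refine map_mono (le_puigStepIn ((comap_mono h1).trans (comap_map_eq_self_of_injective hf H).le)
    (PGroup.isMulCommutative_iff.mpr fun a ha b hb => hf ?_)
    ((map_le_iff_le_comap.mp h3).trans (le_normalizer_comap f)))
  rw [map_mul, map_mul]
  exact PGroup.isMulCommutative_iff.mp h2 _ ha _ hb

theorem map_puigSeqIn {f : G →* G'} (hf : Function.Injective f) (H : Subgroup G) (n : ℕ) :
    (puigSeqIn H n).map f = puigSeqIn (H.map f) n := by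
  induction n with
  | zero => exact Subgroup.map_bot f
  | succ n ih => rw [puigSeqIn, map_puigStepIn hf, ih, puigSeqIn]

theorem map_puigIn {f : G →* G'} (hf : Function.Injective f) (H : Subgroup G) :
    (puigIn H).map f = puigIn (H.map f) := by
  simp only [puigIn, map_iInf f hf, map_puigSeqIn hf]

theorem map_puigLowIn {f : G →* G'} (hf : Function.Injective f) (H : Subgroup G) :
    (puigLowIn H).map f = puigLowIn (H.map f) := by
  simp only [puigLowIn, Subgroup.map_iSup, map_puigSeqIn hf]

theorem map_subtype_puigSubgroup (H : Subgroup G) : (puigSubgroup H).map H.subtype = puigIn H := by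
  rw [← puigIn_top, map_puigIn H.subtype_injective, Core.map_subtype_top]

theorem map_subtype_puigLower (H : Subgroup G) : (puigLower H).map H.subtype = puigLowIn H := by
  rw [← puigLowIn_top, map_puigLowIn H.subtype_injective, Core.map_subtype_top]

theorem normalizer_le_normalizer_puigSeqIn (H : Subgroup G) (n : ℕ) :
    normalizer (H : Set G) ≤ normalizer (puigSeqIn H n : Set G) := fun g hg =>
  conj_eq_self_iff.mp ((map_puigSeqIn (MulAut.conj g).injective H n).trans
    (congrArg (puigSeqIn · n) (conj_eq_self_iff.mpr hg)))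

theorem normalizer_le_normalizer_puigIn (H : Subgroup G) :
    normalizer (H : Set G) ≤ normalizer (puigIn H : Set G) := fun g hg =>
  conj_eq_self_iff.mp ((map_puigIn (MulAut.conj g).injective H).trans
    (congrArg puigIn (conj_eq_self_iff.mpr hg)))

theorem puigSeqIn_le (H : Subgroup G) : ∀ n : ℕ, puigSeqIn H n ≤ H
  | 0 => bot_le
  | _ + 1 => puigStepIn_le _ _

theorem puigSeqIn_one (H : Subgroup G) : puigSeqIn H 1 = H :=
  le_antisymm (puigSeqIn_le H 1) fun x hx =>
    le_puigStepIn (zpowers_le.mpr hx) inferInstance bot_le (mem_zpowers x)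

theorem puigIn_le (H : Subgroup G) : puigIn H ≤ H := (iInf_le _ 0).trans (puigSeqIn_le H _)

theorem puigSeqIn_even_le (H : Subgroup G) (n : ℕ) :
    puigSeqIn H (2 * n) ≤ puigSeqIn H (2 * n + 2) := by
  induction n with
  | zero => exact bot_le
  | succ n ih => exact puigStepIn_mono le_rfl (puigStepIn_mono le_rfl ih)

theorem puigSeqIn_odd_le (H : Subgroup G) (n : ℕ) :
    puigSeqIn H (2 * n + 3) ≤ puigSeqIn H (2 * n + 1) :=
  puigStepIn_mono le_rfl (puigSeqIn_even_le H n)

theorem monotone_puigSeqIn (H : Subgroup G) : Monotone fun n => puigSeqIn H (2 * n) :=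
  monotone_nat_of_le_succ (puigSeqIn_even_le H)

theorem antitone_puigSeqIn (H : Subgroup G) : Antitone fun n => puigSeqIn H (2 * n + 1) :=
  antitone_nat_of_succ_le (puigSeqIn_odd_le H)

theorem puigSeqIn_even_le_odd (H : Subgroup G) (n m : ℕ) :
    puigSeqIn H (2 * n) ≤ puigSeqIn H (2 * m + 1) := by
  have h : ∀ n, puigSeqIn H (2 * n) ≤ puigSeqIn H (2 * n + 1) := fun n => by
    induction n with
    | zero => exact bot_le
    | succ n ih => exact puigStepIn_mono le_rfl (puigStepIn_mono le_rfl ih)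
  exact (monotone_puigSeqIn H (le_max_left n m)).trans
    ((h _).trans (antitone_puigSeqIn H (le_max_right n m)))

theorem puigLowIn_le_puigIn (H : Subgroup G) : puigLowIn H ≤ puigIn H :=
  iSup_le fun n => le_iInf fun m => puigSeqIn_even_le_odd H n m

theorem le_puigSeqIn_of_normal {H A : Subgroup G} (h1 : A ≤ H) (h2 : IsMulCommutative A)
    (h3 : H ≤ normalizer (A : Set G)) (n : ℕ) : A ≤ puigSeqIn H (n + 1) :=
  le_puigStepIn h1 h2 ((puigSeqIn_le H n).trans h3)

theorem le_puigLowIn_of_normal {H A : Subgroup G} (h1 : A ≤ H) (h2 : IsMulCommutative A)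
    (h3 : H ≤ normalizer (A : Set G)) : A ≤ puigLowIn H :=
  (le_puigSeqIn_of_normal h1 h2 h3 1).trans (le_iSup (fun n => puigSeqIn H (2 * n)) 1)

variable [Finite G]

theorem exists_puigSeqIn_eq (H : Subgroup G) : ∃ k, ∀ n, k ≤ n →
    puigSeqIn H (2 * n) = puigLowIn H ∧ puigSeqIn H (2 * n + 1) = puigIn H := by
  obtain ⟨k, hk⟩ := WellFoundedGT.monotone_chain_condition ⟨_, monotone_puigSeqIn H⟩
  have h1 : ∀ n, k ≤ n → puigSeqIn H (2 * n) = puigSeqIn H (2 * k) := fun n hn => (hk n hn).symm
  have h2 : ∀ n, k ≤ n → puigSeqIn H (2 * n + 1) = puigSeqIn H (2 * k + 1) := fun n hn =>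
    congrArg (puigStepIn H) (h1 n hn)
  refine ⟨k, fun n hn => ⟨le_antisymm (le_iSup (fun n => puigSeqIn H (2 * n)) n)
    (iSup_le fun m => ?_), le_antisymm (le_iInf fun m => ?_) (iInf_le _ n)⟩⟩
  · exact (monotone_puigSeqIn H (le_max_left m n)).trans
      ((h1 _ (le_max_of_le_right hn)).trans (h1 n hn).symm).le
  · exact ((h2 n hn).trans (h2 _ (le_max_of_le_right hn)).symm).le.trans
      (antitone_puigSeqIn H (le_max_left m n))

theorem puigStepIn_puigLowIn (H : Subgroup G) : puigStepIn H (puigLowIn H) = puigIn H := by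
  obtain ⟨k, hk⟩ := exists_puigSeqIn_eq H
  rw [← (hk k le_rfl).1, ← (hk k le_rfl).2, puigSeqIn]

theorem puigStepIn_puigIn (H : Subgroup G) : puigStepIn H (puigIn H) = puigLowIn H := by
  obtain ⟨k, hk⟩ := exists_puigSeqIn_eq H
  rw [← (hk k le_rfl).2, ← (hk (k + 1) k.le_succ).1]
  rfl

theorem puigIn_eq_of_le {H K : Subgroup G} (h1 : puigIn K ≤ H) (h2 : H ≤ K) :
    puigIn H = puigIn K := by
  refine le_antisymm (iInf_mono fun n => ?_) (le_iInf fun n => ?_)
  · induction n with
    | zero => exact puigStepIn_mono h2 le_rfl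
    | succ n ih =>
      refine puigStepIn_mono h2 (puigStepIn_le_of_le ?_ ih)
      exact ((le_iSup (fun n => puigSeqIn K (2 * n)) (n + 1)).trans
        (puigLowIn_le_puigIn K)).trans h1
  · induction n with
    | zero => exact h1.trans (puigSeqIn_one H).ge
    | succ n ih =>
      rw [← puigStepIn_puigLowIn]
      refine puigStepIn_le_of_le ((puigStepIn_puigLowIn K).le.trans h1) ?_
      rw [← puigStepIn_puigIn]
      exact puigStepIn_mono h2 ih

variable [hp : Fact p.Prime]

theorem exists_normal_abelian_self_centralizing {P : Subgroup G} (hP : IsPGroup p P) :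
    ∃ A ≤ P, IsMulCommutative A ∧ P ≤ normalizer (A : Set G) ∧
      P ⊓ centralizer (A : Set G) ≤ A := by
  obtain ⟨A, -, ⟨h1, h2, h3⟩, hmax⟩ := Core.exists_maximal_ge
    (P := fun A : Subgroup G => A ≤ P ∧ IsMulCommutative A ∧ P ≤ normalizer (A : Set G)) (H := ⊥)
    ⟨bot_le, inferInstance, le_normalizer_of_normal⟩
  refine ⟨A, h1, h2, h3, by_contra fun h => ?_⟩
  obtain ⟨x, hx, hxA, -, hxc⟩ := PGroup.exists_mem_not_mem_pow_mem hP h1 inf_le_left
    (Core.le_normalizer_inf le_normalizer (Core.le_normalizer_centralizer h3)) h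
  refine hxA ((hmax (A ⊔ zpowers x) ⟨sup_le h1 (zpowers_le.mpr hx.1), PGroup.isMulCommutative_sup
    h2 inferInstance (le_centralizer_iff.mp (zpowers_le.mpr hx.2)), ?_⟩ le_sup_left).le
    (mem_sup_right (mem_zpowers x)))
  refine le_normalizer_iff_commutator_le_left.mpr ((commutator_le.mpr fun g hg s hs => ?_).trans
    le_sup_left)
  exact PGroup.commutator_mem_of_mem_sup_zpowers (centralizer_le_normalizer _ hx.2) (h3 hs)
    (hxc s hs) hg

theorem inf_centralizer_le_of_forall {P L : Subgroup G} (hP : IsPGroup p P)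
    (h : ∀ A ≤ P, IsMulCommutative A → P ≤ normalizer (A : Set G) → A ≤ L) :
    P ⊓ centralizer (L : Set G) ≤ L := by
  obtain ⟨A, h1, h2, h3, h4⟩ := exists_normal_abelian_self_centralizing hP
  exact ((inf_le_inf_left P (centralizer_le (h A h1 h2 h3))).trans h4).trans (h A h1 h2 h3)

theorem inf_centralizer_puigSeqIn_le {P : Subgroup G} (hP : IsPGroup p P) (n : ℕ) :
    P ⊓ centralizer (puigSeqIn P (n + 1) : Set G) ≤ puigSeqIn P (n + 1) :=
  inf_centralizer_le_of_forall hP fun _ h1 h2 h3 => le_puigSeqIn_of_normal h1 h2 h3 n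

theorem inf_centralizer_puigLowIn_le {P : Subgroup G} (hP : IsPGroup p P) :
    P ⊓ centralizer (puigLowIn P : Set G) ≤ puigLowIn P :=
  inf_centralizer_le_of_forall hP fun _ h1 h2 h3 => le_puigLowIn_of_normal h1 h2 h3

theorem inf_centralizer_puigIn_le {P : Subgroup G} (hP : IsPGroup p P) :
    P ⊓ centralizer (puigIn P : Set G) ≤ puigIn P :=
  inf_centralizer_le_of_forall hP fun _ h1 h2 h3 =>
    (le_puigLowIn_of_normal h1 h2 h3).trans (puigLowIn_le_puigIn P)

theorem isPGroup_centralizer_of_self_centralizing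
    (hc : centralizer (pCore p G : Set G) ≤ pCore p G) {P : Subgroup G} (hP : P ≤ pCore p G)
    (h : pCore p G ⊓ centralizer (P : Set G) ≤ P) : IsPGroup p (centralizer (P : Set G)) := by
  refine Core.isPGroup_subgroup_iff.mpr fun x hx => ?_
  obtain ⟨k, hk⟩ := exists_pow_pow_coprime (p := p) x
  have h1 := hc (Coprime.le_centralizer_of_self_centralizing (Core.pCore_isPGroup p G).isNilpotent
    (A := zpowers (x ^ p ^ k)) le_normalizer_of_normal
    (Coprime.coprime_card_of_isPGroup (Core.pCore_isPGroup p G) (by rwa [Nat.card_zpowers])) hP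
    (zpowers_le.mpr (pow_mem hx _)) h (mem_zpowers _))
  obtain ⟨l, hl⟩ := Core.isPGroup_subgroup_iff.mp (Core.pCore_isPGroup p G) _ h1
  exact ⟨k, eq_one_of_pow_pow_eq_one_of_coprime hl hk⟩

omit [Finite G] hp in
theorem NormalStable.map_puigStepIn_le (hst : NormalStable p G) {S X P : Subgroup G} [P.Normal]
    (hS : IsPGroup p S) (hP : IsPGroup p P) (hPX : P ≤ X) :
    (puigStepIn S X).map (QuotientGroup.mk' (centralizer (P : Set G))) ≤ pCore p _ :=
  map_le_iff_le_comap.mpr (puigStepIn_le_iff.mpr fun A h1 h2 h3 => map_le_iff_le_comap.mp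
    (map_le_pCore_iff.mpr (hst P inferInstance hP A (hS.to_le h1)
      (quadratic_of_le_normalizer h2 (hPX.trans h3)))))

theorem puigSeqIn_sylow_le (hst : NormalStable p G)
    (hc : centralizer (pCore p G : Set G) ≤ pCore p G) (S : Sylow p G) (n : ℕ) :
    puigSeqIn (S : Subgroup G) (2 * n) ≤ puigSeqIn (pCore p G) (2 * n) := by
  induction n with
  | zero => exact le_rfl
  | succ n ih =>
    have h1 := puigStepIn_mono (Core.pCore_le_sylow S) ih
    have : (puigSeqIn (pCore p G) (2 * n + 1)).Normal := Core.normal_of_top_le_normalizer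
      ((normalizer_eq_top _).ge.trans (normalizer_le_normalizer_puigSeqIn _ _))
    refine puigStepIn_le_of_le (fun a ha => ?_) h1
    exact (map_le_pCore_iff.mp (hst.map_puigStepIn_le S.isPGroup'
      ((Core.pCore_isPGroup p G).to_le (puigSeqIn_le _ (2 * n + 1))) h1) a ha).mem_pCore
      (isPGroup_centralizer_of_self_centralizing hc (puigSeqIn_le _ _)
        (inf_centralizer_puigSeqIn_le (Core.pCore_isPGroup p G) _))

theorem puigIn_pCore_le (hst : NormalStable p G)
    (hc : centralizer (pCore p G : Set G) ≤ pCore p G) (S : Sylow p G) :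
    puigIn (pCore p G) ≤ puigIn (S : Subgroup G) :=
  iInf_mono fun n => puigStepIn_mono (Core.pCore_le_sylow S) (puigSeqIn_sylow_le hst hc S n)

/-- Puig's theorem. -/
theorem center_puigIn_normal (hst : NormalStable p G)
    (hc : centralizer (pCore p G : Set G) ≤ pCore p G) (S : Sylow p G) :
    (puigIn (S : Subgroup G) ⊓ centralizer (puigIn (S : Subgroup G) : Set G)).Normal := by
  set Z := puigIn (S : Subgroup G) ⊓ centralizer (puigIn (S : Subgroup G) : Set G)
  set Y := puigIn (pCore p G) ⊓ centralizer (puigIn (pCore p G) : Set G)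
  have hn : ∀ H : Subgroup G, normalizer (H : Set G) ≤
      normalizer ((puigIn H ⊓ centralizer (puigIn H : Set G) : Subgroup G) : Set G) := fun H =>
    Core.le_normalizer_inf (normalizer_le_normalizer_puigIn H)
      (Core.le_normalizer_centralizer (normalizer_le_normalizer_puigIn H))
  have hO := Core.pCore_isPGroup p G
  have hY : Y.Normal := Core.normal_of_top_le_normalizer ((normalizer_eq_top _).ge.trans (hn _))
  have hZO : Z ≤ pCore p G := hst.le_pCore hc (S.isPGroup'.to_le (inf_le_left.trans (puigIn_le _)))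
    (quadratic_of_le_normalizer (PGroup.isMulCommutative_inf_centralizer _)
      ((Core.pCore_le_sylow S).trans (le_normalizer.trans (hn _))))
  have hZY : Z ≤ Y := by
    have : Z ≤ _ := inf_le_right.trans (centralizer_le (puigIn_pCore_le hst hc S))
    exact le_inf ((le_inf hZO this).trans (inf_centralizer_puigIn_le hO)) this
  have hYO : Y ≤ pCore p G := inf_le_left.trans (puigIn_le _)
  have h1 := hst.map_puigStepIn_le S.isPGroup' (hO.to_le hYO) (le_puigLowIn_of_normal
    (hYO.trans (Core.pCore_le_sylow S)) (PGroup.isMulCommutative_inf_centralizer _)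
    le_normalizer_of_normal)
  rw [puigStepIn_puigLowIn, map_le_iff_le_comap] at h1
  set D := (pCore p (G ⧸ centralizer (Y : Set G))).comap (QuotientGroup.mk' _)
  have hU : ¬ p ∣ ((S : Subgroup G) ⊓ D).relIndex D := by
    rw [inf_relIndex_right]; exact sylow_not_dvd_relIndex_normal S D
  have hD : D ≤ normalizer (Z : Set G) := by
    refine (map_pResidual_sup_eq inf_le_right hU).ge.trans (sup_le ?_
      (inf_le_left.trans (le_normalizer.trans (hn _))))
    refine map_subtype_pResidual_le_iff.mpr fun g hg hc' =>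
      centralizer_le_normalizer _ (centralizer_le hZY ?_)
    obtain ⟨k, hk⟩ := Core.isPGroup_subgroup_iff.mp (Core.pCore_isPGroup p _) _ hg
    rw [← map_pow, QuotientGroup.mk'_apply, QuotientGroup.eq_one_iff] at hk
    exact mem_of_pow_mem_of_coprime hk (hc'.pow_right k)
  refine Core.normal_of_top_le_normalizer fun g _ => ?_
  obtain ⟨n, hn1, hn2⟩ := frattini_argument inf_le_right (S.isPGroup'.to_le inf_le_left) hU
    (normalizer_eq_top D).ge (mem_top g)
  have h2 := hn _ hn2
  rw [puigIn_eq_of_le (le_inf (puigIn_le _) h1) inf_le_left] at h2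
  exact (Subgroup.mul_mem_cancel_left _ (hD hn1)).mp h2

omit [Finite G] hp in
theorem map_center_puigIn_of_inf_ker {f : G →* G'} {P : Subgroup G} (h : P ⊓ f.ker = ⊥) :
    (puigIn P ⊓ centralizer (puigIn P : Set G)).map f =
      puigIn (P.map f) ⊓ centralizer (puigIn (P.map f) : Set G') := by
  conv_lhs => rw [← Core.map_subtype_top P, ← map_puigIn P.subtype_injective,
    ← map_inf_centralizer P.subtype_injective, map_map,
    map_inf_centralizer (injective_comp_subtype h), map_puigIn (injective_comp_subtype h),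
    ← map_map, Core.map_subtype_top]

theorem pPrimeCore_sup_normalizer_center_puigIn (hc : IsPConstrained p G)
    (hst : NormalStable p (G ⧸ pPrimeCore p G)) (S : Sylow p G) :
    pPrimeCore p G ⊔ normalizer ((puigIn (S : Subgroup G) ⊓
      centralizer (puigIn (S : Subgroup G) : Set G) : Subgroup G) : Set G) = ⊤ := by
  refine pPrimeCore_sup_normalizer_eq_top (S.isPGroup'.to_le (inf_le_left.trans (puigIn_le _))) ?_
  rw [map_center_puigIn_of_inf_ker (by
    rw [QuotientGroup.ker_mk']; exact Core.inf_pPrimeCore_eq_bot S.isPGroup')]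
  exact center_puigIn_normal hst (Core.isPConstrained_iff.mp hc)
    (S.mapSurjective (QuotientGroup.mk'_surjective _))

end Cfsg.Lib.PLocal
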