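import Mathlib
import Cfsg.Prelude.Def_LocalEven
import Cfsg.Agent.Lib.PGroup.Basic
import Cfsg.Agent.Lib.Core.PCore

/-!
# The group `Qd` over an arbitrary field
-/

namespace Cfsg.Lib.PLocal.QdF

open Subgroup Matrix
open scoped MatrixGroups

variable {F : Type*} [Field F]

/-- The affine matrix with linear part `A` and translation part `v`. -/
def aff (A : Matrix (Fin 2) (Fin 2) F) (v : Fin 2 → F) : Matrix (Fin 3) (Fin 3) F :=
  !![A 0 0, A 0 1, v 0; A 1 0, A 1 1, v 1; 0, 0, 1]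

theorem aff_mul (A B : Matrix (Fin 2) (Fin 2) F) (v w : Fin 2 → F) :
    aff A v * aff B w = aff (A * B) (v + A *ᵥ w) := by
  ext i j
  fin_cases i <;> fin_cases j <;>
    simp [aff, mul_apply, Fin.sum_univ_three, Fin.sum_univ_two] <;> ring

theorem aff_one : aff (1 : Matrix (Fin 2) (Fin 2) F) 0 = 1 := by
  ext i j
  fin_cases i <;> fin_cases j <;> simp [aff]

theorem det_aff (A : Matrix (Fin 2) (Fin 2) F) (v : Fin 2 → F) : (aff A v).det = A.det := by
  simp [aff, det_fin_three, det_fin_two]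

theorem aff_inj {A B : Matrix (Fin 2) (Fin 2) F} {v w : Fin 2 → F}
    (h : aff A v = aff B w) : A = B ∧ v = w := by
  constructor
  · ext i j
    fin_cases i <;> fin_cases j
    exacts [congrFun (congrFun h 0) 0, congrFun (congrFun h 0) 1, congrFun (congrFun h 1) 0,
      congrFun (congrFun h 1) 1]
  · ext i
    fin_cases i
    exacts [congrFun (congrFun h 0) 2, congrFun (congrFun h 1) 2]

/-- The element of `Qd` with linear part `A` and translation part `v`. -/
def elt (A : SL(2, F)) (v : Fin 2 → F) : qdOver F :=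
  ⟨⟨aff A v, (det_aff _ _).trans A.2⟩, subset_closure ⟨rfl, rfl, rfl⟩⟩

theorem elt_mul (A B : SL(2, F)) (v w : Fin 2 → F) :
    elt A v * elt B w = elt (A * B) (v + A.1 *ᵥ w) :=
  Subtype.ext (Subtype.ext (aff_mul _ _ _ _))

theorem elt_one : elt (1 : SL(2, F)) 0 = 1 := Subtype.ext (Subtype.ext aff_one)

theorem elt_inj {A B : SL(2, F)} {v w : Fin 2 → F} (h : elt A v = elt B w) : A = B ∧ v = w := by
  have := aff_inj (congrArg Subtype.val (congrArg Subtype.val h))
  exact ⟨Subtype.ext this.1, this.2⟩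

theorem elt_inv (A : SL(2, F)) (v : Fin 2 → F) : (elt A v)⁻¹ = elt A⁻¹ (-((A⁻¹).1 *ᵥ v)) := by
  rw [inv_eq_iff_mul_eq_one, elt_mul, mul_inv_cancel, mulVec_neg, mulVec_mulVec,
    show A.1 * (A⁻¹).1 = 1 from congrArg Subtype.val (mul_inv_cancel A), one_mulVec,
    add_neg_cancel, elt_one]

theorem exists_elt (g : qdOver F) : ∃ A v, g = elt A v := by
  obtain ⟨g, hg⟩ := g
  induction hg using Subgroup.closure_induction with
  | mem M hM =>
    obtain ⟨h0, h1, h2⟩ := hM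
    have e : (M : Matrix (Fin 3) (Fin 3) F) =
        aff !![M 0 0, M 0 1; M 1 0, M 1 1] ![M 0 2, M 1 2] := by
      ext i j
      fin_cases i <;> fin_cases j <;> first | rfl | assumption
    exact ⟨⟨_, (det_aff _ _).symm.trans (e ▸ M.2)⟩, _, Subtype.ext (Subtype.ext e)⟩
  | one => exact ⟨1, 0, elt_one.symm⟩
  | mul x y hx hy h1 h2 =>
    obtain ⟨A, v, h1⟩ := h1
    obtain ⟨B, w, h2⟩ := h2
    exact ⟨_, _, (congrArg₂ (· * ·) h1 h2).trans (elt_mul _ _ _ _)⟩
  | inv x hx h1 =>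
    obtain ⟨A, v, h1⟩ := h1
    exact ⟨_, _, (congrArg (·⁻¹) h1).trans (elt_inv _ _)⟩

theorem elt_one_mul (v w : Fin 2 → F) : elt 1 v * elt 1 w = elt 1 (v + w) := by
  rw [elt_mul, mul_one]
  exact congrArg (fun u => elt 1 (v + u)) (one_mulVec w)

theorem elt_conj (A : SL(2, F)) (w v : Fin 2 → F) :
    elt A w * elt 1 v * (elt A w)⁻¹ = elt 1 (A.1 *ᵥ v) := by
  rw [mul_inv_eq_iff_eq_mul, elt_mul, elt_mul, mul_one, one_mul, add_comm,
    show (1 : SL(2, F)).1 *ᵥ w = w from one_mulVec w]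

/-- The translations. -/
def tr : Multiplicative (Fin 2 → F) →* qdOver F :=
  MonoidHom.mk' (fun v => elt 1 v.toAdd) fun _ _ => (elt_one_mul _ _).symm

/-- The linear part. -/
def lin : SL(2, F) →* qdOver F :=
  MonoidHom.mk' (fun A => elt A 0) fun A B => by rw [elt_mul, mulVec_zero, add_zero]

theorem tr_injective : Function.Injective (tr (F := F)) := fun _ _ h => (elt_inj h).2

theorem lin_injective : Function.Injective (lin (F := F)) := fun _ _ h => (elt_inj h).1

theorem elt_mem_tr {A : SL(2, F)} {v : Fin 2 → F} : elt A v ∈ tr.range ↔ A = 1 :=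
  ⟨fun ⟨_, h⟩ => (elt_inj h).1.symm, fun h => ⟨Multiplicative.ofAdd v, h ▸ rfl⟩⟩

theorem elt_mem_lin {A : SL(2, F)} {v : Fin 2 → F} : elt A v ∈ lin.range ↔ v = 0 :=
  ⟨fun ⟨_, h⟩ => (elt_inj h).2.symm, fun h => ⟨A, h ▸ rfl⟩⟩

instance tr_normal : (tr (F := F)).range.Normal := ⟨by
  rintro _ ⟨v, rfl⟩ g
  obtain ⟨A, w, rfl⟩ := exists_elt g
  exact ⟨Multiplicative.ofAdd _, (elt_conj A w _).symm⟩⟩

theorem elt_mem_centralizer {A : SL(2, F)} {w : Fin 2 → F} :
    elt A w ∈ centralizer ((tr (F := F)).range : Set (qdOver F)) ↔ A = 1 := by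
  constructor
  · intro h
    refine Subtype.ext (Matrix.ext_of_mulVec_single fun i => ?_)
    have h1 := h (elt 1 (Pi.single i 1)) (elt_mem_tr.mpr rfl)
    rw [eq_comm, ← mul_inv_eq_iff_eq_mul, elt_conj] at h1
    exact (elt_inj h1).2.trans (one_mulVec _).symm
  · rintro rfl _ ⟨v, rfl⟩
    exact (elt_one_mul _ _).trans ((congrArg _ (add_comm _ _)).trans (elt_one_mul _ _).symm)

theorem exists_mulVec_eq {v : Fin 2 → F} (hv : v ≠ 0) : ∃ A : SL(2, F), A.1 *ᵥ ![1, 0] = v := by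
  by_cases h : v 0 = 0
  · have h1 : v 1 ≠ 0 := fun h1 => hv (funext fun i => by fin_cases i; exacts [h, h1])
    refine ⟨⟨!![0, -(v 1)⁻¹; v 1, 0], by simp [det_fin_two, h1]⟩, funext fun i => ?_⟩
    fin_cases i <;> simp [mulVec, dotProduct, h]
  · refine ⟨⟨!![v 0, 0; v 1, (v 0)⁻¹], by simp [det_fin_two, h]⟩, funext fun i => ?_⟩
    fin_cases i <;> simp [mulVec, dotProduct]

theorem pCore_eq [Finite F] {p : ℕ} [Fact p.Prime] [CharP F p] :
    pCore p (qdOver F) = tr.range := by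
  have h1 : IsPGroup p (tr (F := F)).range := Core.isPGroup_subgroup_iff.mpr (by
    rintro _ ⟨v, rfl⟩
    refine ⟨1, ?_⟩
    rw [pow_one, ← map_pow, ← map_one tr]
    congr 1
    ext i
    simp)
  refine le_antisymm (fun g hg => ?_) (Core.le_pCore inferInstance h1)
  obtain ⟨A, w, rfl⟩ := exists_elt g
  rw [elt_mem_tr, ← elt_mem_centralizer (w := w)]
  have h2 := PGroup.inf_centralizer_ne_bot h1 (Core.pCore_isPGroup p _) le_normalizer_of_normal
    (fun h => by
      have : elt 1 ![1, 0] ∈ (tr (F := F)).range := elt_mem_tr.mpr rfl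
      rw [h, mem_bot, ← elt_one] at this
      simpa using congrFun (elt_inj this).2 0)
  obtain ⟨⟨_, ⟨u, rfl⟩, hu⟩, h0⟩ := (nontrivial_iff_exists_ne_one _).mp
    ((nontrivial_iff_ne_bot _).mpr h2) |> fun ⟨x, hx, h⟩ =>
      (⟨⟨x, hx⟩, h⟩ : ∃ x : ↥((tr (F := F)).range ⊓ centralizer (pCore p (qdOver F) : Set _)),
        (x : qdOver F) ≠ 1)
  refine le_centralizer_iff.mp ?_ hg
  rintro _ ⟨v, rfl⟩
  by_cases hv : v.toAdd = 0
  · exact (show tr v = 1 from (congrArg (elt 1) hv).trans elt_one) ▸ one_mem _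
  obtain ⟨B, hB⟩ := exists_mulVec_eq hv
  obtain ⟨C, hC⟩ := exists_mulVec_eq (v := u.toAdd) fun h =>
    h0 ((congrArg (elt 1) h).trans elt_one)
  have : tr v = elt (B * C⁻¹) 0 * tr u * (elt (B * C⁻¹) 0)⁻¹ := by
    refine Eq.symm ((elt_conj _ _ _).trans (congrArg (elt 1) ?_))
    rw [← hB, ← hC, mulVec_mulVec,
      show (B * C⁻¹).1 * C.1 = B.1 from congrArg Subtype.val (inv_mul_cancel_right B C)]
  exact this ▸ Normal.conj_mem inferInstance _ hu _

theorem isNaturalSL2Module : IsNaturalSL2Module F (tr (F := F)).range lin.range := by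
  let e := MonoidHom.ofInjective (lin_injective (F := F))
  let f := MonoidHom.ofInjective (tr_injective (F := F))
  refine ⟨le_normalizer_of_normal, e.symm.toMonoidHom,
    (MulEquiv.toAdditiveLeft f.symm), e.symm.surjective, ?_, fun l v => ?_⟩
  · ext l
    obtain ⟨A, rfl⟩ := e.surjective l
    rw [MonoidHom.mem_ker, mem_subgroupOf]
    exact (by simp : _ ↔ A = 1).trans elt_mem_centralizer.symm
  · obtain ⟨A, rfl⟩ := e.surjective l
    obtain ⟨v, rfl⟩ := f.surjective v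
    refine ⟨f (Multiplicative.ofAdd (A.1 *ᵥ v.toAdd)), (elt_conj A 0 _).symm, ?_⟩
    simp

end Cfsg.Lib.PLocal.QdF
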