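import Mathlib
import Cfsg.Agent.Lib.PLocal.Factor

/-! The characteristic subgroup `W(S)` (`stableNormalClosure`). -/

set_option autoImplicit false

namespace Cfsg.Lib.PLocal

open Subgroup Cfsg.Lib.Transfer
open scoped commutatorElement

universe u

section General

variable {G : Type*} [Group G] {p : ℕ}

theorem quadratic_of_le_sup {V A B : Subgroup G} (hA : A ≤ normalizer (V : Set G))
    (hB : B ≤ A ⊔ centralizer (V : Set G)) (hq : ⁅⁅V, A⁆, A⁆ = ⊥) : ⁅⁅V, B⁆, B⁆ = ⊥ := by
  have key : ∀ U ≤ V, ⁅U, B⁆ ≤ ⁅U, A⁆ := fun U hU => by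
    rw [commutator_comm U B, commutator_comm U A]
    refine Coprime.commutator_le_of_subset_mul_centralizer fun k hk => ?_
    obtain ⟨x, hx, c, hc, rfl⟩ := (Core.mem_sup_of_le_normalizer_right
      (Core.le_normalizer_centralizer hA)).mp (hB hk)
    exact ⟨x, hx, by
      rw [inv_mul_cancel_left]; exact centralizer_le (SetLike.coe_subset_coe.mpr hU) hc⟩
  exact le_bot_iff.mp <| (commutator_mono (key V le_rfl) le_rfl).trans
    ((key _ (Coprime.commutator_le_of_le_normalizer hA)).trans hq.le)

theorem isPGroup_of_forall_prime [Finite G] [Fact p.Prime] {D : Subgroup G}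
    (h : ∀ (q : ℕ) (P : Subgroup G), q.Prime → q ≠ p → P ≤ D → IsPGroup q P → P = ⊥) :
    IsPGroup p D := by
  refine IsPGroup.of_card (Nat.eq_prime_pow_of_unique_prime_dvd Nat.card_pos.ne' fun {q} hq hd => ?_)
  by_contra hqp
  have := Fact.mk hq
  obtain ⟨x, hx⟩ := exists_prime_orderOf_dvd_card' q hd
  have h1 := h q (zpowers (x : G)) hq hqp (zpowers_le.mpr x.2)
    (IsPGroup.of_card (n := 1) (by rw [Nat.card_zpowers, orderOf_coe, hx, pow_one]))
  rw [zpowers_eq_bot, OneMemClass.coe_eq_one] at h1
  rw [h1, orderOf_one] at hx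
  exact hq.one_lt.ne hx

/-- Stability on the Frattini quotient of a self-centralizing `O_p(G)`. -/
theorem mem_pCore_of_isPStableOnSection [Finite G] [hp : Fact p.Prime]
    (h : IsPStableOnSection p (pCore p G) ((frattini ↥(pCore p G)).map (pCore p G).subtype))
    (hc : centralizer (pCore p G : Set G) ≤ pCore p G) {a : G}
    (ha : ⁅⁅pCore p G, zpowers a⁆, zpowers a⁆ = ⊥) : a ∈ pCore p G := by
  obtain ⟨D, hD, hK, ⟨k, hk⟩, haD⟩ := h a (ha.le.trans bot_le)
  refine Core.le_pCore hD (isPGroup_of_forall_prime fun q P hq hqp hPD hP => ?_) haD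
  have := Fact.mk hq
  have hcop : ∀ n, (Nat.card P).Coprime (p ^ n) := fun n => by
    obtain ⟨m, hm⟩ := hP.exists_card_eq
    rw [hm]
    exact Nat.Coprime.pow _ _ ((Nat.coprime_primes hq hp.out).mpr hqp)
  have h1 : P ≤ sectionKernel (pCore p G) ((frattini ↥(pCore p G)).map (pCore p G).subtype) :=
    (Core.SubnormalIn.of_le_normalizer hK (le_trans le_normalizer_of_normal
      normalizer_le_normalizer_sectionKernel)).le_of_coprime hPD (hk ▸ hcop k)
  rw [← commutator_le_iff_le_sectionKernel, commutator_comm] at h1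
  obtain ⟨m, hm⟩ := ((Core.pCore_isPGroup p G).to_subgroup (frattini _)).exists_card_eq
  have h2 := Coprime.le_centralizer_of_commutator_le_frattini le_normalizer_of_normal
    (hm ▸ hcop m) h1
  obtain ⟨n, hn⟩ := (Core.pCore_isPGroup p G).exists_card_eq
  exact card_eq_one.mp (Nat.Coprime.eq_one_of_dvd (hcop n)
    (hn ▸ card_dvd_of_le (h2.trans hc)))

end General

section Basic

variable {p : ℕ} {S S' H : Type u} [Group S] [Group S'] [Group H]

theorem isElementaryAbelian_omegaCenterThompson (S : Type*) [Group S] :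
    IsElementaryAbelian p (omegaCenterThompson p S) :=
  PGroup.isElementaryAbelian_omegaOne (PGroup.isMulCommutative_inf_centralizer _)

theorem isStableEmbedding_comp {τ : S' →* H} (h : IsStableEmbedding p τ) (η : S ≃* S') :
    IsStableEmbedding p (τ.comp η.toMonoidHom) := by
  obtain ⟨h1, h2, ⟨P, hP⟩, h4, h5, h6⟩ := h
  have hr : (τ.comp η.toMonoidHom).range = τ.range := by
    rw [MonoidHom.range_comp, MonoidHom.range_eq_top.mpr η.surjective, ← MonoidHom.range_eq_map]
  have hi : Function.Injective (τ.comp η.toMonoidHom) := h1.comp η.injective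
  refine ⟨hi, h2, ⟨P, hP.trans hr.symm⟩, h4, ?_, fun V _ hV => h6 V ?_⟩
  · rwa [map_thompsonSubgroup hi, hr, ← map_thompsonSubgroup h1]
  · rwa [map_omegaCenterThompson hi, hr, ← map_omegaCenterThompson h1] at hV

theorem omegaOne_center_le_stableNormalClosure :
    omegaOne p (center S) ≤ stableNormalClosure p S :=
  le_sInf fun _ h => h.1

theorem stableNormalClosure_le {W : Subgroup S} (h1 : omegaOne p (center S) ≤ W)
    (h2 : ∀ (H : Type u) [Group H] (τ : S →* H), IsStableEmbedding p τ → (W.map τ).Normal) :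
    stableNormalClosure p S ≤ W :=
  sInf_le ⟨h1, h2⟩

theorem stableNormalClosure_le_omegaCenterThompson [Finite S] :
    stableNormalClosure p S ≤ omegaCenterThompson p S := by
  refine stableNormalClosure_le ?_ fun H _ τ h => ?_
  · rw [omegaCenterThompson_eq]
    refine le_trans (PGroup.omegaOne_mono ?_) (omegaOne_center_le_centerThompsonOf ⊤)
    rw [top_inf_eq, coe_top, centralizer_univ]
  · have := h.2.2.2.2.1
    rw [map_thompsonSubgroup h.1] at this
    rw [map_omegaCenterThompson h.1, centerThompsonOf]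
    infer_instance

theorem isElementaryAbelian_stableNormalClosure [Finite S] :
    IsElementaryAbelian p (stableNormalClosure p S) :=
  PGroup.elemAb_of_le (isElementaryAbelian_omegaCenterThompson S)
    stableNormalClosure_le_omegaCenterThompson

theorem normal_map_stableNormalClosure [Finite S] {τ : S →* H} (h : IsStableEmbedding p τ) :
    ((stableNormalClosure p S).map τ).Normal := by
  refine ⟨?_⟩
  rintro _ ⟨x, hx, rfl⟩ g
  have key : ∀ W : Subgroup S, omegaOne p (center S) ≤ W →
      (∀ (H : Type u) [Group H] (τ : S →* H), IsStableEmbedding p τ → (W.map τ).Normal) →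
      g * τ x * g⁻¹ ∈ W.map τ := fun W h1 h2 =>
    (h2 H τ h).conj_mem _ (mem_map_of_mem τ (stableNormalClosure_le h1 h2 hx)) g
  have h0 : g * τ x * g⁻¹ ∈ τ.range := by
    have : ((omegaCenterThompson p S).map τ).Normal := by
      have := h.2.2.2.2.1
      rw [map_thompsonSubgroup h.1] at this
      rw [map_omegaCenterThompson h.1, centerThompsonOf]
      infer_instance
    exact map_le_range τ _ (this.conj_mem _
      (mem_map_of_mem τ (stableNormalClosure_le_omegaCenterThompson hx)) g)
  obtain ⟨y, hy⟩ := h0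
  refine ⟨y, mem_sInf.mpr fun W hW => ?_, hy⟩
  obtain ⟨z, hz, hz'⟩ := key W hW.1 hW.2
  rwa [← h.1 (hz'.trans hy.symm)]

theorem map_stableNormalClosure_le (η : S ≃* S') :
    (stableNormalClosure p S).map η.toMonoidHom ≤ stableNormalClosure p S' := by
  refine le_sInf fun W hW => map_le_iff_le_comap.mpr (stableNormalClosure_le ?_ fun H _ τ h => ?_)
  · rw [← map_le_iff_le_comap]
    refine le_trans (PGroup.map_omegaOne_le _ _) (le_trans (PGroup.omegaOne_mono ?_) hW.1)
    rintro _ ⟨x, hx, rfl⟩
    rw [mem_center_iff]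
    intro y
    obtain ⟨y, rfl⟩ := η.surjective y
    change η y * η x = η x * η y
    rw [← map_mul, ← map_mul, mem_center_iff.mp hx y]
  · have := hW.2 H _ (isStableEmbedding_comp h η.symm)
    rwa [← Subgroup.map_map, map_equiv_eq_comap_symm'] at this

theorem map_stableNormalClosure (η : S ≃* S') :
    (stableNormalClosure p S).map η.toMonoidHom = stableNormalClosure p S' := by
  refine le_antisymm (map_stableNormalClosure_le η) fun x hx => ?_
  exact ⟨η.symm x, map_stableNormalClosure_le η.symm (mem_map_of_mem _ hx), η.apply_symm_apply x⟩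

instance stableNormalClosure_characteristic : (stableNormalClosure p S).Characteristic :=
  characteristic_iff_map_eq.mpr fun η => map_stableNormalClosure η

theorem stableNormalClosure_ne_bot [Finite S] [Fact p.Prime] (hS : IsPGroup p S) [Nontrivial S] :
    stableNormalClosure p S ≠ ⊥ := fun h => by
  have h1 := omegaOne_center_le_stableNormalClosure (p := p) (S := S)
  rw [h, le_bot_iff, PGroup.omegaOne_eq_bot_iff (hS.to_subgroup _)] at h1
  have := hS.center_nontrivial
  exact (nontrivial_iff_ne_bot _).mp this h1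

theorem isCharPFunctor_stableNormalClosure [Fact p.Prime] :
    IsCharPFunctor.{u} p (stableNormalClosure p) :=
  ⟨fun _ _ _ h _ => stableNormalClosure_ne_bot h, fun _ _ _ _ _ _ φ => map_stableNormalClosure φ⟩

/-- No element acts quadratically and non-trivially on `W(S)`. -/
theorem mem_centralizer_stableNormalClosure [Finite S] [Fact p.Prime] {x : S}
    (hq : ⁅⁅stableNormalClosure p S, zpowers x⁆, zpowers x⁆ = ⊥) :
    x ∈ centralizer (stableNormalClosure p S : Set S) := by
  set W := stableNormalClosure p S with hW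
  let Q : Set S := {x | ⁅⁅W, zpowers x⁆, zpowers x⁆ = ⊥}
  have key : W ≤ W ⊓ centralizer Q := by
    refine stableNormalClosure_le (le_inf omegaOne_center_le_stableNormalClosure
      ((PGroup.omegaOne_le _).trans (center_le_centralizer Q))) fun H _ τ h => ?_
    have := h.2.1
    have hn : (W.map τ).Normal := normal_map_stableNormalClosure h
    have hst : IsPStableOn p (W.map τ) :=
      h.2.2.2.2.2 _ (map_mono stableNormalClosure_le_omegaCenterThompson)
    obtain ⟨P, hP⟩ := h.2.2.1
    refine ⟨?_⟩
    rintro _ ⟨w, hw, rfl⟩ g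
    obtain ⟨w', hw', hww⟩ := hn.conj_mem _ (mem_map_of_mem τ hw.1) g
    refine ⟨w', ⟨hw', fun y hy => h.1 ?_⟩, hww⟩
    have hq1 : ⁅⁅W.map τ, zpowers (τ y)⁆, zpowers (τ y)⁆ = ⊥ := by
      rw [← MonoidHom.map_zpowers, ← map_commutator, ← map_commutator, hy, Subgroup.map_bot]
    have hq2 := quadratic_conj (g := g⁻¹) (by rw [normalizer_eq_top]; trivial) hq1
    obtain ⟨M, hM, -, -, hMle⟩ := (isPStableOn_iff.mp hst _ hq2).exists_le_sup
      (S := (P : Subgroup H)) (by rw [relIndex_top_right]; exact P.not_dvd_index)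
    rw [inf_top_eq, inf_top_eq] at hMle
    obtain ⟨c, hc, s, hs, hcs⟩ := mem_sup_of_normal_left.mp (hMle hM)
    rw [hP] at hs
    obtain ⟨s, rfl⟩ := hs
    have hsQ : s ∈ Q := by
      apply (map_eq_bot_iff_of_injective _ h.1).mp
      rw [map_commutator, map_commutator, MonoidHom.map_zpowers]
      refine quadratic_of_le_sup le_normalizer_of_normal (zpowers_le.mpr ?_) hq2
      rw [show τ s = c⁻¹ * (g⁻¹ * τ y * g⁻¹⁻¹) by rw [← hcs]; group]
      exact mul_mem (mem_sup_right (inv_mem hc)) (mem_sup_left (mem_zpowers _))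
    have h1 : τ s * τ w = τ w * τ s := by rw [← map_mul, ← map_mul, hw.2 s hsQ]
    have h2 : c * τ w = τ w * c := (hc _ (mem_map_of_mem τ hw.1)).symm
    have h3 : τ y = g * (c * τ s) * g⁻¹ := by rw [hcs]; group
    rw [map_mul, map_mul, hww, h3]
    calc g * (c * τ s) * g⁻¹ * (g * τ w * g⁻¹) = g * c * (τ s * τ w) * g⁻¹ := by group
      _ = g * (c * τ w) * τ s * g⁻¹ := by rw [h1]; group
      _ = _ := by rw [h2]; group
  exact fun w hw => ((key hw).2 x hq).symm

end Basic

section Normal

variable {p : ℕ} [hp : Fact p.Prime] {G : Type u} [Group G] [Finite G]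

omit hp in
theorem map_stableNormalClosure_le_omega (S : Subgroup G) :
    (stableNormalClosure p S).map S.subtype ≤ omegaOne p (centerThompsonOf p S) := by
  have := map_omegaCenterThompson (e := p) S.subtype_injective
  rw [range_subtype] at this
  exact (map_mono stableNormalClosure_le_omegaCenterThompson).trans this.le

theorem mem_centralizer_map_stableNormalClosure {S : Subgroup G} {x : G} (hx : x ∈ S)
    (hq : ⁅⁅(stableNormalClosure p S).map S.subtype, zpowers x⁆, zpowers x⁆ = ⊥) :
    x ∈ centralizer (((stableNormalClosure p S).map S.subtype : Subgroup G) : Set G) := by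
  have h := mem_centralizer_stableNormalClosure (p := p) (x := (⟨x, hx⟩ : S)) (by
    apply (map_eq_bot_iff_of_injective _ S.subtype_injective).mp
    rw [map_commutator, map_commutator, MonoidHom.map_zpowers]
    exact hq)
  rintro _ ⟨w, hw, rfl⟩
  exact congrArg Subtype.val (h w hw)

theorem normalizer_thompson_le_normalizer_stableNormalClosure (hst : IsActionPStable p G)
    (hc : centralizer (pCore p G : Set G) ≤ pCore p G) (S : Sylow p G) :
    normalizer (thompsonSubgroupOf p (S : Subgroup G) : Set G) ≤
      normalizer (((stableNormalClosure p (S : Subgroup G)).map (S : Subgroup G).subtype :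
        Subgroup G) : Set G) := by
  set N := normalizer (thompsonSubgroupOf p (S : Subgroup G) : Set G) with hN
  have hSN : (S : Subgroup G) ≤ N :=
    le_normalizer.trans ((subFunctor_thompsonSubgroupOf (Or.inr rfl)).normalizer_le S.isPGroup')
  have hcomp : N.subtype.comp (inclusion hSN) = (S : Subgroup G).subtype := rfl
  have hst' : IsStableEmbedding p (inclusion hSN) := by
    refine ⟨inclusion_injective hSN, inferInstance, ⟨S.subtype hSN, ?_⟩, ?_, ?_, fun V _ hV => ?_⟩
    · rw [Sylow.coe_subtype, inclusion_range]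
    · intro x hx
      have h1 : (pCore p G).subgroupOf N ≤ pCore p N :=
        Core.le_pCore inferInstance ((Core.pCore_isPGroup p G).comap_subtype)
      refine h1 (hc fun y hy => ?_)
      exact congrArg Subtype.val (hx ⟨y, hSN (Core.pCore_le_sylow S hy)⟩ (h1 hy))
    · rw [Core.normal_iff_le_normalizer_map_subtype, Subgroup.map_map, hcomp]
      exact le_rfl
    · refine hst.2.2 S V ?_
      rw [← hcomp, ← Subgroup.map_map]
      exact map_mono hV
  have := normal_map_stableNormalClosure hst'
  rwa [Core.normal_iff_le_normalizer_map_subtype, Subgroup.map_map, hcomp] at this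

theorem normal_map_stableNormalClosure_of_isActionPStable (hst : IsActionPStable p G)
    (hc : centralizer (pCore p G : Set G) ≤ pCore p G) (S : Sylow p G) :
    ((stableNormalClosure p (S : Subgroup G)).map (S : Subgroup G).subtype).Normal := by
  set W := (stableNormalClosure p (S : Subgroup G)).map (S : Subgroup G).subtype with hW
  have hWe : IsElementaryAbelian p W := PGroup.elemAb_map _ isElementaryAbelian_stableNormalClosure
  have hSW : (S : Subgroup G) ≤ normalizer (W : Set G) := Core.le_normalizer_map_subtype _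
  have hOS := Core.pCore_le_sylow S
  have hWO : W ≤ pCore p G := fun w hw => mem_pCore_of_isPStableOnSection hst.2.1 hc
    (quadratic_zpowers_of_mem (quadratic_of_le_normalizer hWe.1 (hOS.trans hSW)) hw)
  have hcO : ∀ g : G, g ⋆ W ≤ pCore p G := fun g =>
    (conj_mono g hWO).trans (conj_eq_self_of_normal g _).le
  have h1 : ∀ g : G, g ⋆ W ≤ centralizer (W : Set G) := fun g x hx => by
    refine mem_centralizer_map_stableNormalClosure (hOS (hcO g hx)) (quadratic_zpowers_of_mem
      (quadratic_of_le_normalizer (PGroup.elemAb_map _ hWe).1 (hWO.trans ?_)) hx)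
    rw [← conj_normalizer, ← conj_eq_self_of_normal g (pCore p G)]
    exact conj_mono g (hOS.trans hSW)
  have h2 : ∀ g h : G, g ⋆ W ≤ centralizer ((h ⋆ W : Subgroup G) : Set G) := fun g h => by
    rw [← conj_centralizer, le_conj_iff_inv_conj_le, conj_conj]
    exact h1 _
  set V := normalClosure (W : Set G) with hV
  have hVeq : V = ⨆ g : G, g ⋆ W := Core.normalClosure_eq_iSup_conj W
  have hWV : W ≤ V := le_normalClosure
  have hVe : IsElementaryAbelian p V := by
    have hcomm : IsMulCommutative V := by
      rw [← le_centralizer_iff_isMulCommutative]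
      nth_rewrite 2 [hVeq]
      rw [Core.centralizer_iSup]
      exact le_iInf fun h => hVeq.le.trans (iSup_le fun g => h2 g h)
    refine PGroup.elemAb_of_le (PGroup.isElementaryAbelian_omegaOne hcomm)
      (hVeq.le.trans (iSup_le fun g => PGroup.elemAb_le_omegaOne (PGroup.elemAb_map _ hWe) ?_))
    exact (le_iSup (fun g : G => g ⋆ W) g).trans hVeq.ge
  have hVS : V ≤ S := hVeq.le.trans (iSup_le fun g => (hcO g).trans hOS)
  have hJW : thompsonSubgroupOf p (S : Subgroup G) ≤ centralizer (W : Set G) :=
    le_centralizer_iff.mp ((map_stableNormalClosure_le_omega _).trans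
      ((PGroup.omegaOne_le _).trans inf_le_right))
  have hJ : thompsonSubgroupOf p (S : Subgroup G) ≤ centralizer (V : Set G) := by
    refine thompsonSubgroupOf_le_iff.mpr fun A hA => ?_
    by_contra h0
    obtain ⟨B, hB, -, hq, hB0⟩ := exists_quadratic_mem_maxIn S.isPGroup' hA hVS hVe
      le_normalizer_of_normal h0
    refine hB0 (le_centralizer_iff.mpr (hVeq.le.trans (iSup_le fun g => ?_)))
    rw [conj_le_iff_le_inv_conj, conj_centralizer, le_centralizer_iff]
    have hB' : g⁻¹ ⋆ B ∈ maxIn p (⊤ : Subgroup G) :=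
      conj_mem_maxIn_of_le (mem_maxIn_top_of_sylow S hB) le_top
    have hq' : ⁅⁅V, g⁻¹ ⋆ B⁆, g⁻¹ ⋆ B⁆ = ⊥ := by
      rw [← conj_eq_self_of_normal g⁻¹ V, ← conj_commutator, ← conj_commutator, hq,
        Subgroup.map_bot]
    generalize g⁻¹ ⋆ B = C at hB' hq'
    let D := (pCore p (G ⧸ centralizer (V : Set G))).comap (QuotientGroup.mk' _)
    have hCD : C ≤ D := fun a ha => hst.1 V hVe a (quadratic_zpowers_of_mem hq' ha)
    have hD : D ≤ centralizer (V : Set G) ⊔ (S : Subgroup G) ⊓ D := by
      have h5 := sylow_not_dvd_relIndex_normal S D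
      rw [← inf_relIndex_right] at h5
      refine (map_pResidual_sup_eq inf_le_right h5).ge.trans (sup_le_sup ?_ le_rfl)
      refine map_subtype_pResidual_le_iff.mpr fun g hg hc => ?_
      obtain ⟨k, hk⟩ := Core.isPGroup_subgroup_iff.mp (Core.pCore_isPGroup p _) _ hg
      rw [← map_pow] at hk
      exact mem_of_pow_mem_of_coprime ((QuotientGroup.eq_one_iff _).mp hk) (hc.pow_right k)
    obtain ⟨d, hd, hdC⟩ := exists_conj_le_of_not_dvd_relIndex'
      (sylow_not_dvd_relIndex_normal S D) (PGroup.elemAb_isPGroup hB'.2.1) hCD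
    obtain ⟨s, hs, c, hc, rfl⟩ := exists_mul_of_mem_sup' le_normalizer_of_normal (hD hd)
    rw [← conj_conj, conj_le_iff_le_inv_conj, conj_eq_self_of_mem (inv_mem hs.1)] at hdC
    have h3 : c ⋆ C ≤ centralizer (W : Set G) :=
      (le_thompsonSubgroupOf (mem_maxIn_of_le (conj_mem_maxIn_of_le hB' le_top) hdC le_top)).trans
        hJW
    rwa [conj_le_iff_le_inv_conj, conj_centralizer, conj_eq_self_of_mem_centralizer
      (inv_mem (centralizer_le (SetLike.coe_subset_coe.mpr hWV) hc))] at h3
  refine Core.normal_of_top_le_normalizer fun g _ => ?_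
  obtain ⟨c, hc', n, hn, rfl⟩ := exists_mul_normalizer_thompsonSubgroupOf S hJ g
  exact mul_mem (centralizer_le_normalizer _ (centralizer_le (SetLike.coe_subset_coe.mpr hWV) hc'))
    (normalizer_thompson_le_normalizer_stableNormalClosure hst hc S hn)

end Normal

end Cfsg.Lib.PLocal
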